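import Cfsg.Agent.Lib.Helper32.KSInst

/-! helper33's pieces [I0], [I3], [I1], [I2], [E] with the exact names of `stubs/KS/Stubs.lean`. -/

set_option autoImplicit false

namespace Cfsg.Agent.Lib.Helper32.KS

open Subgroup MulAction Cfsg.Agent.Lib.Helper33.KS
open Cfsg.Agent.Lib.Helper22 (conjS)

variable {G : Type*} [Group G]

theorem l1 [Finite G] {P T : Subgroup G} {s : G} (h : Hyp P T s) : L1 P T (Cfsg.pCoreOf 2 P) s :=
  KSLocal.l1 h

theorem l2 [Finite G] {P T : Subgroup G} {s : G} (h : Hyp P T s) :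
    L2 P T (Cfsg.pCoreOf 2 P) (Zcan P) s := KSLocal.l2 h

theorem b_one [Finite G] {P T : Subgroup G} {s : G} (h : Hyp P T s)
    (hb : ∃ a ∈ Zcan P, ∃ c ∈ conjS s (Zcan P), a * c ≠ c * a) : Concl P T s := KSLocal.b_one h hb

/-- [I0] -/
theorem St_mk (P : Subgroup G) (g : G) : St G ((g : G) : G ⧸ P) = conjS g P := KSLocal.St_mk P g

theorem Zcan_conjS (g : G) (A : Subgroup G) : Zcan (conjS g A) = conjS g (Zcan A) :=
  (KSLocal.cj_Zcan g A).symm

theorem QI_mk (P : Subgroup G) (g : G) : QI P ((g : G) : G ⧸ P) = conjS g (Cfsg.pCoreOf 2 P) :=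
  KSLocal.QI_mk P g

theorem ZI_mk (P : Subgroup G) (g : G) : ZI P ((g : G) : G ⧸ P) = conjS g (Zcan P) :=
  KSLocal.ZI_mk P g

/-- [I3] (with `[Finite G]`; `h1`, `h2` are not needed). -/
theorem cub [Finite G] {P T : Subgroup G} {s : G} (h : Hyp P T s)
    (_h1 : L1 P T (Cfsg.pCoreOf 2 P) s) (_h2 : L2 P T (Cfsg.pCoreOf 2 P) (Zcan P) s) :
    Cub (adjI P s) (QI P) (ZI P) := KSLocal.cub_of_hyp h

end Cfsg.Agent.Lib.Helper32.KS
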